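import Mathlib
import Cfsg.Agent.H288.E6.Big
import Cfsg.Agent.H944.E6Tab
import Cfsg.Agent.H333.E6Act
import Cfsg.Agent.H200.E6Two
import Cfsg.Agent.H163.E6.Sit

/-!
# S5927, characteristic 2, `A_n`, `n = 9, 10, 11, 12` (helper288, after helper905's paper proof)
-/

set_option autoImplicit false
set_option linter.unusedSectionVars false

namespace Cfsg.Agent.H288.E6

open Cfsg Cfsg.Lie Module
open Cfsg.Agent.ChevalleyStructure.E6Min.Tables Cfsg.Agent.ChevalleyStructure.E6Min.Basic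
  Cfsg.Agent.ChevalleyStructure.E6Min.Adjoint
open Cfsg.Agent.H952.F4 (ev es sh cr tf)
open Cfsg.Agent.H905.E6T Cfsg.Agent.H163.E6

universe u

variable {F : Type u} [Field F] [Finite F] [CharP F 2] {n : ℕ} {φ : ↥(alternatingGroup (Fin n)) →* ↥(chevE6.group F)}
  {ψ : ↥(alternatingGroup (Fin n)) →* ↥(Zgrp F)}

theorem pd : PD (V F) (V' F) := ⟨Act.tf_act, Act.sh_act, Act.sh_act'⟩

theorem inpV (hφ : Function.Injective φ) (hψ : Lift φ ψ) : Inp (MonoidHom.comp (V F) ψ) := by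
  have hT : Tab 2 F := Tor.tab 2
  have hne : ∀ a, a ≠ 1 → ad F (ψ a) ≠ 1 := fun a ha h => ha (hφ (by rw [← hψ, h, map_one]))
  refine ⟨fun a ha => Tor.two_two (ψ a) (by rw [← map_mul, ha, map_one]),
    fun a ha => Tor.two_four (ψ a) (by rw [← map_pow, ha, map_one]), ?_, ?_⟩
  · rintro a h1 h3 ⟨b, hb⟩
    have h4 : ψ a ^ 3 = 1 := by rw [← map_pow, h3, map_one]
    have h5 := hT.three (by norm_num) (ψ a) (hne a h1) h4
    have h6 := hT.three_real (by norm_num) (ψ a) (hne a h1) h4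
      ⟨ψ b, by rw [← map_inv, ← map_mul, ← map_mul, hb, map_inv]⟩
    change 9 ≤ ev (V F (ψ a)) 1
    rcases h5 with h | h | h | h
    · omega
    · omega
    · omega
    · exact absurd h.1 h6
  · rintro a h1 h5 ⟨b, hb⟩
    have h4 : ψ a ^ 5 = 1 := by rw [← map_pow, h5, map_one]
    have h6 : ψ a ≠ 1 := fun h => hne a h1 (by rw [h, map_one])
    exact (hT.five_rat (by norm_num) (ψ a) h6 h4 ⟨ψ b, by rw [← map_inv, ← map_mul, ← map_mul, hb, map_pow]⟩).1

theorem inpV' (hφ : Function.Injective φ) (hψ : Lift φ ψ) : Inp (MonoidHom.comp (V' F) ψ) := by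
  have h := inpV hφ hψ
  have h1 : ∀ a, ev (MonoidHom.comp (V' F) ψ a) 1 = ev (MonoidHom.comp (V F) ψ a) 1 := by
    intro a
    have h2 := Act.ev_dual (ψ a) (μ := 1) one_ne_zero
    rw [inv_one] at h2
    exact h2
  refine ⟨?_, ?_, ?_, ?_⟩
  · intro a ha
    rw [h1]
    exact h.two a ha
  · intro a ha
    rw [h1]
    exact h.four a ha
  · intro a h3 h4 h5
    rw [h1]
    exact h.three a h3 h4 h5
  · intro a h3 h4 h5
    rw [h1]
    exact h.five a h3 h4 h5

theorem big_nine_up {H : Subgroup ↥(chevE6.group F)} (hn : 9 ≤ n) (hn' : n ≤ 12) (hS : Sit H n φ) (hψ : Lift φ ψ) :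
    False := by
  have h2 : (2 : F) = 0 := CharTwo.two_eq_zero
  obtain ⟨h3, h4⟩ := hS.no_fixed ψ hψ
  have hI := inpV hS.inj hψ
  have hI' := inpV' hS.inj hψ
  have hP : PD (MonoidHom.comp (V F) ψ) (MonoidHom.comp (V' F) ψ) := pd.comp ψ
  have h5 : finrank F (Representation.invariants (MonoidHom.comp (V F) ψ)) = 0 := by rw [h3, finrank_bot]
  have h6 : finrank F (Representation.invariants (MonoidHom.comp (V' F) ψ)) = 0 := by rw [h4, finrank_bot]
  clear hS
  have h7 : n = 9 ∨ n = 10 ∨ n = 11 ∨ n = 12 := by omega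
  rcases h7 with rfl | rfl | rfl | rfl
  · have := nine h2 hP hI
    omega
  · have := ten h2 hP hI
    omega
  · have := eleven hP hI
    omega
  · exact twelve h2 hP hI hI' h3 h4

end Cfsg.Agent.H288.E6
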