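import Mathlib
import Cfsg.Agent.H944.E6Tab
import Cfsg.Agent.H333.E6Act
import Cfsg.Agent.H905.E6T.Fam

/-!
# Elements of order 11 of `E₆` (S5927, S5928; helper288)

* `chk11` : the multiplicities `(17, 1^10)` and `(7, 2^10)` do not occur on `V`;
* `no_real11` : an element `x` with `x ^ 11 = 1`, conjugate to `x ^ 3` and having the same multiplicities of `μ`
  and `μ⁻¹` for all `μ`, is trivial;
* `no_nonsing` : an injective homomorphism `A_n → Zgrp F`, `n ≥ 11`, fixes only vectors `v` with `cubicT v = 0`.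
-/

set_option autoImplicit false
set_option linter.unusedSectionVars false

namespace Cfsg.Agent.H288.E6

open Cfsg Cfsg.Lie Module
open Cfsg.Agent.ChevalleyStructure Cfsg.Agent.ChevalleyStructure.Elts
open Cfsg.Agent.ChevalleyStructure.E6Min.Tables Cfsg.Agent.ChevalleyStructure.E6Min.Basic
  Cfsg.Agent.ChevalleyStructure.E6Min.Adjoint Cfsg.Agent.ChevalleyStructure.E6Min.Forms
open Cfsg.Agent.H952.F4 (ev es matRep sh cr tf)
open Cfsg.Agent.H163.E6 (V V')
open Cfsg.Agent.BpExc.TorAll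
open Cfsg.Agent.H944.E6T

universe u

/-! ### the check -/

/-- the check: the codes of `(17, 1^10)` and `(7, 2^10)` do not occur -/
def chkN : Bool :=
  all3 11 0 fun x0 x1 x2 => all3 11 0 fun y0 y1 y2 => all3 11 0 fun z0 z1 z2 =>
    !(Nat.beq (nV 11 x0 x1 x2 y0 y1 y2 z0 z1 z2) 1213666705181745367548177 ||
      Nat.beq (nV 11 x0 x1 x2 y0 y1 y2 z0 z1 z2) 2427333410363490735096327)

theorem chk11 : chkN = true := by decide +kernel

theorem core11 {b : I27 → ZMod 11} (hb : ∀ x y, rel x y = 2 → b x + b y + b (th x y) = 0) :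
    ∑ x : I27, W8 (b x) ≠ 1213666705181745367548177 ∧ ∑ x : I27, W8 (b x) ≠ 2427333410363490735096327 := by
  have hP := par_par hb
  obtain ⟨t, ht⟩ : ∃ t : ZMod 11, par b 9 + 3 * t = ((0 : ℕ) : ZMod 11) := by
    have key : ∀ s : ZMod 11, ∃ t : ZMod 11, s + 3 * t = ((0 : ℕ) : ZMod 11) := by decide
    exact key _
  rw [sum_coord hb, ← sV_shift W8 _ _ _ t]
  set X : Fin 3 → ZMod 11 := fun i => par b i.val + t with hXd
  set Y : Fin 3 → ZMod 11 := fun i => par b (3 + i.val) + t with hYd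
  set Z : Fin 3 → ZMod 11 := fun i => par b (6 + i.val) + t with hZd
  have hX : X 0 + X 1 + X 2 = ((0 : ℕ) : ZMod 11) := by
    rw [← ht]
    have := hP.x
    show par b 0 + t + (par b 1 + t) + (par b 2 + t) = _
    linear_combination this
  have hY : Y 0 + Y 1 + Y 2 = ((0 : ℕ) : ZMod 11) := by
    rw [← ht]
    have := hP.y
    show par b 3 + t + (par b 4 + t) + (par b 5 + t) = _
    linear_combination this
  have hZ : Z 0 + Z 1 + Z 2 = ((0 : ℕ) : ZMod 11) := by
    rw [← ht]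
    have := hP.z
    show par b 6 + t + (par b 7 + t) + (par b 8 + t) = _
    linear_combination this
  clear_value X Y Z
  obtain ⟨σ, hσ1, hσ2⟩ := exists_sort X
  obtain ⟨τ, hτ1, hτ2⟩ := exists_sort Y
  obtain ⟨υ, hυ1, hυ2⟩ := exists_sort Z
  rw [← sV_perm W8 X Y Z σ τ υ, sV_eq]
  have hs : 0 < 11 := by norm_num
  have h1 := all3_spec (all3_spec (all3_spec chk11 hσ1 hσ2 (ZMod.val_lt _) (sum_mod X hs σ hX))
    hτ1 hτ2 (ZMod.val_lt _) (sum_mod Y hs τ hY)) hυ1 hυ2 (ZMod.val_lt _) (sum_mod Z hs υ hZ)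
  rw [Bool.not_eq_true', Bool.or_eq_false_iff] at h1
  refine ⟨fun h => ?_, fun h => ?_⟩
  · have h2 := Nat.beq_eq.mpr h
    exact Bool.noConfusion (h2.symm.trans h1.1)
  · have h2 := Nat.beq_eq.mpr h
    exact Bool.noConfusion (h2.symm.trans h1.2)

/-! ### elements of order 11 over an algebraically closed field -/

theorem no_real11 {K : Type u} [Field K] [IsAlgClosed K] (p : ℕ) [Fact p.Prime] [CharP K p] (hK : HAlg p K)
    (hp : p ≠ 11) {x : ↥(Zgrp K)} (hx : x ^ 11 = 1) (h3 : ∃ g, g * x * g⁻¹ = x ^ 3)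
    (hs : ∀ μ : K, μ ^ 11 = 1 → ev (V K x) μ = ev (V K x) μ⁻¹) : x = 1 := by
  classical
  have hmp : Nat.Coprime 11 p := cop (p := p) (by norm_num) hp
  obtain ⟨ζ, hζ⟩ := exists_prim (K := K) p hmp
  have hm0 : (11 : ℕ) ≠ 0 := by norm_num
  obtain ⟨g, d, hdV, hdL, hdm, htri⟩ := exists_diag p hK hm0 hmp hx
  set t := g * x * g⁻¹ with ht
  have hζ0 : ζ ≠ 0 := hζ.ne_zero hm0
  let z : Kˣ := Units.mk0 ζ hζ0
  have hzu : IsPrimitiveRoot z 11 := by
    rw [← IsPrimitiveRoot.coe_units_iff]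
    exact hζ
  have hex : ∀ i, ∃ a < 11, z ^ a = d i := by
    intro i
    have h1 : ((d i : Kˣ) : K) ^ 11 = 1 := by
      rw [← Units.val_pow_eq_pow_val, hdm i, Units.val_one]
    obtain ⟨a, ha', ha⟩ := hζ.eq_pow_of_pow_eq_one h1
    refine ⟨a, ha', Units.ext ?_⟩
    rw [Units.val_pow_eq_pow_val, ← ha]
    rfl
  choose a ha' ha using hex
  let b : I27 → ZMod 11 := fun i => (a i : ZMod 11)
  have hzp : ∀ n : ℤ, z ^ n = z ^ ((n : ZMod 11).val) := by
    intro n
    rw [← zpow_natCast, ZMod.val_intCast]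
    have h1 : z ^ ((11 : ℕ) : ℤ) = 1 := by rw [zpow_natCast]; exact hzu.pow_eq_one
    conv_lhs => rw [← Int.emod_add_mul_ediv n ((11 : ℕ) : ℤ)]
    rw [zpow_add, zpow_mul, h1, one_zpow, mul_one]
  have hzinj : ∀ {c c' : ZMod 11}, z ^ c.val = z ^ c'.val → c = c' := by
    intro c c' h
    exact ZMod.val_injective 11 (hzu.pow_inj (ZMod.val_lt _) (ZMod.val_lt _) h)
  have hdb : ∀ i, d i = z ^ (b i).val := by
    intro i
    rw [← ha i, ← zpow_natCast, hzp]
    simp [b]
  have hb : ∀ x y, rel x y = 2 → b x + b y + b (th x y) = 0 := by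
    intro x y hxy
    have h1 := htri x y hxy
    apply hzinj
    rw [hdb, hdb, hdb, ← pow_add, ← pow_add] at h1
    rw [ZMod.val_zero, pow_zero, ← h1, ← zpow_natCast z ((b x).val + (b y).val + (b (th x y)).val), hzp]
    congr 2
    push_cast
    simp
  have hV : ∀ k : ℕ, V K (t ^ k) = Matrix.toLin' (Matrix.diagonal fun i => ((d i : Kˣ) : K) ^ k) := by
    intro k
    show Matrix.toLin' (((t ^ k : ↥(Zgrp K)) : GL I27 K) : Matrix I27 I27 K) = _
    rw [Subgroup.coe_pow, Units.val_pow_eq_pow_val, hdV, Matrix.diagonal_pow]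
    rfl
  have hzm : ∀ c : ZMod 11, ((z ^ c.val : Kˣ) : K) ^ 11 = 1 := by
    intro c
    rw [← Units.val_pow_eq_pow_val, ← pow_mul, mul_comm, pow_mul, hzu.pow_eq_one, one_pow, Units.val_one]
  have hζz : ∀ j : ℕ, ζ ^ j = ((z ^ j : Kˣ) : K) := fun j => by
    rw [Units.val_pow_eq_pow_val]
    rfl
  obtain ⟨v1, v2, v3, v4⟩ := diag_facts (V K) hζ hm0 (x := x) (g := g) (d := fun i => ((d i : Kˣ) : K)) hV (fun i => by
    show (d i : K) ^ 11 = 1; rw [hdb]; exact hzm _)
  set c : ℕ → ℕ := fun j => (Finset.univ.filter fun i : I27 => (b i).val = j).card with hcd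
  have hc : ∀ j < 11, ev (V K x) (ζ ^ j) = c j := by
    intro j hj
    rw [v1]
    refine congrArg Finset.card (Finset.filter_congr fun i _ => ?_)
    rw [hζz, hdb]
    constructor
    · intro h
      exact hzu.pow_inj (ZMod.val_lt _) hj (Units.ext h)
    · intro h
      rw [h]
  have hsum : ∑ j ∈ Finset.range 11, c j = 27 := by
    have h1 := Finset.card_eq_sum_card_fiberwise (s := (Finset.univ : Finset I27)) (t := Finset.range 11)
      (f := fun i => (b i).val) (fun i _ => Finset.mem_coe.2 (Finset.mem_range.2 (ZMod.val_lt _)))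
    rw [← h1]
    decide
  have hmod : ∀ n : ℕ, ζ ^ n = ζ ^ (n % 11) := by
    intro n
    conv_lhs => rw [← Nat.mod_add_div n 11, pow_add, pow_mul, hζ.pow_eq_one, one_pow, mul_one]
  obtain ⟨h, hh⟩ := h3
  have h3' : ∀ j < 11, c (3 * j % 11) = c j := by
    intro j hj
    rw [← hc j hj, ← hc _ (Nat.mod_lt _ (by norm_num)), ← hmod, ← v3 3 j (by norm_num), ← hh, ev_conj]
  have hsy : c 10 = c 1 := by
    rw [← hc 10 (by norm_num), ← hc 1 (by norm_num), pow_one, hs ζ hζ.pow_eq_one]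
    congr 1
    exact eq_inv_of_mul_eq_one_left (by rw [← pow_succ, hζ.pow_eq_one])
  have e1 := h3' 1 (by norm_num)
  have e3 := h3' 3 (by norm_num)
  have e9 := h3' 9 (by norm_num)
  have e5 := h3' 5 (by norm_num)
  have e10 := h3' 10 (by norm_num)
  have e8 := h3' 8 (by norm_num)
  have e2 := h3' 2 (by norm_num)
  have e6 := h3' 6 (by norm_num)
  norm_num at e1 e3 e9 e5 e10 e8 e2 e6
  have hW : ∑ x : I27, W8 (b x) = ∑ i ∈ Finset.range 11, c i * 256 ^ i := sum_levels _ _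
  obtain ⟨n1, n2⟩ := core11 hb
  rw [hW] at n1 n2
  simp only [Finset.sum_range_succ, Finset.sum_range_zero, zero_add] at hsum n1 n2
  have k2 : c 2 = c 1 := by omega
  have k3 : c 3 = c 1 := by omega
  have k4 : c 4 = c 1 := by omega
  have k5 : c 5 = c 1 := by omega
  have k6 : c 6 = c 1 := by omega
  have k7 : c 7 = c 1 := by omega
  have k8 : c 8 = c 1 := by omega
  have k9 : c 9 = c 1 := by omega
  rw [k2, k3, k4, k5, k6, k7, k8, k9, hsy] at hsum n1 n2
  have h0 : c 1 = 0 := by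
    by_contra h0
    have h1 : c 1 = 1 ∨ c 1 = 2 := by omega
    rcases h1 with h1 | h1
    · apply n1
      have : c 0 = 17 := by omega
      rw [this, h1]
      norm_num
    · apply n2
      have : c 0 = 7 := by omega
      rw [this, h1]
      norm_num
  apply V_one_of_ev
  rw [← pow_zero ζ, hc 0 (by norm_num)]
  omega

/-! ### fixed vectors with `cubicT v ≠ 0` -/

theorem ev_le_inv {K : Type u} [Field K] {x : ↥(Zgrp K)} {w : I27 → K} (hw : V K x w = w) (hN : cubicT w ≠ 0) {μ : K}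
    (h0 : μ ≠ 0) (h1 : μ ≠ 1) : ev (V K x) μ ≤ ev (V K x) μ⁻¹ := by
  rw [← Cfsg.Agent.H163.E6.Act.ev_dual x h0]
  unfold Cfsg.Agent.H952.F4.ev
  have hm : ∀ y ∈ Module.End.eigenspace (V K x) μ, Cfsg.Agent.H905.E6T.crB K w y ∈ Module.End.eigenspace (V' K x) μ := by
    intro y hy
    rw [Module.End.mem_eigenspace_iff] at hy ⊢
    rw [Cfsg.Agent.H905.E6T.crB_apply, ← Cfsg.Agent.H163.E6.Act.cr_act, hw, hy, Cfsg.Agent.H952.F4.Jord.cr_smul_right]
  let f : ↥(Module.End.eigenspace (V K x) μ) →ₗ[K] ↥(Module.End.eigenspace (V' K x) μ) :=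
    ((Cfsg.Agent.H905.E6T.crB K w).domRestrict _).codRestrict _ (fun m => hm m m.2)
  have hf : Function.Injective f := by
    rw [← LinearMap.ker_eq_bot, eq_bot_iff]
    rintro ⟨y, hy⟩ h
    have h2 : cr w y = 0 := congrArg Subtype.val h
    have h3 := Cfsg.Agent.H952.F4.Jord.cr_sh_cr w y
    rw [h2, Cfsg.Agent.H905.E6T.cr_zero_right] at h3
    have h4 : y = (-(cubicT w)⁻¹ * tf (sh w) y) • w := by
      have h5 : cubicT w • y = -(tf (sh w) y • w) := eq_neg_of_add_eq_zero_left h3.symm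
      rw [neg_mul, neg_smul, ← smul_smul, ← smul_neg, ← h5, smul_smul, inv_mul_cancel₀ hN, one_smul]
    have h5 : V K x y = y := by
      rw [h4, map_smul, hw]
    rw [Module.End.mem_eigenspace_iff] at hy
    rw [hy] at h5
    have h6 : (μ - 1) • y = 0 := by rw [sub_smul, h5, one_smul, sub_self]
    have h7 := (smul_eq_zero.1 h6).resolve_left (sub_ne_zero.2 h1)
    simp [h7]
  exact LinearMap.finrank_le_finrank_of_injective hf

theorem V_jm {F K : Type u} [Field F] [Field K] (f : F →+* K) (g : ↥(Zgrp F)) (v : I27 → F) :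
    V K (jm f g) (fun i => f (v i)) = fun i => f (V F g v i) := by
  rw [Cfsg.Agent.H163.E6.V_apply, Cfsg.Agent.H163.E6.V_apply, coe_jm]
  funext i
  simp [Matrix.mulVec, dotProduct, Matrix.map_apply, map_sum, map_mul]

theorem no_nonsing (p : ℕ) [Fact p.Prime] {F : Type u} [Field F] [Finite F] [CharP F p] (hp : p ≠ 11) {n : ℕ}
    (hn : 11 ≤ n) {ψ : ↥(alternatingGroup (Fin n)) →* ↥(Zgrp F)} (hψ : Function.Injective ψ) {v : I27 → F}
    (hv : ∀ a, V F (ψ a) v = v) : cubicT v = 0 := by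
  by_contra hN
  obtain ⟨a, b, ha, hab⟩ := Cfsg.Agent.H191.AltElts.exists_f55 hn
  have hch : CharP (AlgebraicClosure F) p := charP_of_injective_algebraMap
    (algebraMap F (AlgebraicClosure F)).injective p
  have hK : HAlg p (AlgebraicClosure F) := Cfsg.Agent.H944.RootVals.hAlg_closure p F
  set f : F →+* AlgebraicClosure F := algebraMap F (AlgebraicClosure F) with hf
  have ha11 : a ^ 11 = 1 := by rw [← ha]; exact pow_orderOf_eq_one a
  have hw : V (AlgebraicClosure F) (jm f (ψ a)) (fun i => f (v i)) = fun i => f (v i) := by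
    rw [V_jm, hv]
  have hNw : cubicT (fun i => f (v i)) ≠ 0 := by
    rw [Cfsg.Agent.H952.F4.Jord.map_N]
    exact (map_ne_zero f).2 hN
  have h1 : jm f (ψ a) = 1 := by
    refine no_real11 p hK hp (by rw [← map_pow, ← map_pow, ha11, map_one, map_one])
      ⟨jm f (ψ b), by rw [← map_inv, ← map_inv, ← map_mul, ← map_mul, ← map_mul, ← map_mul, hab, map_pow, map_pow]⟩ ?_
    intro μ hμ
    have h0 : μ ≠ 0 := by
      rintro rfl
      rw [zero_pow (by norm_num)] at hμ
      exact zero_ne_one hμ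
    by_cases hμ1 : μ = 1
    · rw [hμ1, inv_one]
    · refine le_antisymm (ev_le_inv hw hNw h0 hμ1) ?_
      have h2 := ev_le_inv hw hNw (inv_ne_zero h0) (by rwa [ne_eq, inv_eq_one])
      rwa [inv_inv] at h2
  have h2 : ψ a = 1 := jm_injective f (by rw [h1, map_one])
  have h3 : a = 1 := hψ (by rw [h2, map_one])
  rw [h3, orderOf_one] at ha
  norm_num at ha

theorem no_nonsing' (p : ℕ) [Fact p.Prime] {F : Type u} [Field F] [Finite F] [CharP F p] (hp : p ≠ 11) {n : ℕ}
    (hn : 11 ≤ n) {ψ : ↥(alternatingGroup (Fin n)) →* ↥(Zgrp F)} (hψ : Function.Injective ψ) {v : I27 → F}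
    (hv : ∀ a, V' F (ψ a) v = v) : cubicT v = 0 := by
  have hv1 : ∀ a, V F (ψ a) (sh v) = sh v := fun a => by rw [← Cfsg.Agent.H163.E6.Act.sh_act', hv]
  have h1 := no_nonsing p hp hn hψ hv1
  by_contra hN
  have h3 : sh (sh (sh v)) = cubicT v ^ 2 • sh v := by
    rw [Cfsg.Agent.H952.F4.Jord.sh_sh v, Cfsg.Agent.H952.F4.Jord.sh_smul]
  rw [Cfsg.Agent.H952.F4.Jord.sh_sh (sh v), h1, zero_smul] at h3
  have h4 : sh v = 0 := (smul_eq_zero.1 h3.symm).resolve_left (pow_ne_zero 2 hN)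
  have h5 : sh (sh v) = cubicT v • v := Cfsg.Agent.H952.F4.Jord.sh_sh v
  rw [h4, Cfsg.Agent.H905.E6T.sh_zero] at h5
  have h6 : v = 0 := (smul_eq_zero.1 h5.symm).resolve_left hN
  apply hN
  rw [h6]
  have h7 := Cfsg.Agent.H952.F4.Jord.N_smul (0 : F) (0 : I27 → F)
  rw [zero_smul] at h7
  rw [h7]
  ring

end Cfsg.Agent.H288.E6
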